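import Mathlib

/-! Element orders and order of the alternating group at large primes. -/

set_option autoImplicit false

namespace CfsgLib.AltSpectrum

/-- No element of order `pq` when `p + q > n`. -/
theorem add_le_of_orderOf {α : Type*} [Fintype α] [DecidableEq α] {p q : ℕ} (hp : p.Prime) (hq : q.Prime)
    (hpq : p ≠ q) (σ : Equiv.Perm α) (h : orderOf σ = p * q) : p + q ≤ Fintype.card α := by
  have hsum : σ.cycleType.sum ≤ Fintype.card α := Equiv.Perm.sum_cycleType_le σ
  have hdiv : ∀ c ∈ σ.cycleType, c = p ∨ c = q ∨ c = p * q := by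
    intro c hc
    have h2 := Equiv.Perm.two_le_of_mem_cycleType hc
    have hd : c ∣ p * q := h ▸ Equiv.Perm.dvd_of_mem_cycleType hc
    obtain ⟨a, b, ha, hb, rfl⟩ := exists_dvd_and_dvd_of_dvd_mul hd
    rcases (Nat.dvd_prime hp).mp ha with rfl | rfl <;> rcases (Nat.dvd_prime hq).mp hb with rfl | rfl
    · omega
    · exact Or.inr (Or.inl (one_mul _))
    · exact Or.inl (mul_one _)
    · exact Or.inr (Or.inr rfl)
  have hle : ∀ c ∈ σ.cycleType, c ≤ σ.cycleType.sum := fun c hc => Multiset.single_le_sum (fun x _ => Nat.zero_le x) c hc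
  by_cases hbig : p * q ∈ σ.cycleType
  · have h1 := hle _ hbig
    have h2 : p + q ≤ p * q := Nat.add_le_mul hp.two_le hq.two_le
    omega
  have hlcm := Equiv.Perm.lcm_cycleType σ
  rw [h] at hlcm
  have hmem : ∀ r s : ℕ, s.Prime → ¬ s ∣ r → s ∣ p * q → (∀ c ∈ σ.cycleType, c = r ∨ c = s) → s ∈ σ.cycleType := by
    intro r s hs hsr hdvd hcs
    by_contra hnot
    have : σ.cycleType.lcm ∣ r := Multiset.lcm_dvd.mpr fun c hc => by
      rcases hcs c hc with rfl | rfl
      · exact dvd_rfl
      · exact absurd hc hnot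
    rw [hlcm] at this
    exact hsr (hdvd.trans this)
  have hdiv' : ∀ c ∈ σ.cycleType, c = p ∨ c = q := fun c hc => by
    rcases hdiv c hc with h1 | h1 | h1
    · exact Or.inl h1
    · exact Or.inr h1
    · exact absurd (h1 ▸ hc) hbig
  have hqm : q ∈ σ.cycleType := hmem p q hq
    (fun h1 => hpq ((Nat.prime_dvd_prime_iff_eq hq hp).mp h1).symm) (dvd_mul_left _ _) hdiv'
  have hpm : p ∈ σ.cycleType := hmem q p hp
    (fun h1 => hpq ((Nat.prime_dvd_prime_iff_eq hp hq).mp h1)) (dvd_mul_right _ _) fun c hc => (hdiv' c hc).symm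
  have h1 := hle p hpm
  rw [← Multiset.cons_erase hqm, Multiset.sum_cons] at hsum
  have h2 : p ≤ (σ.cycleType.erase q).sum :=
    Multiset.single_le_sum (fun x _ => Nat.zero_le x) p ((Multiset.mem_erase_of_ne hpq).mpr hpm)
  omega

theorem not_spectrum {G : Type*} [Group G] {n p q : ℕ} (hp : p.Prime) (hq : q.Prime) (hpq : p ≠ q)
    (hn : n < p + q)
    (hspec : Set.range (orderOf : G → ℕ) = Set.range (orderOf : alternatingGroup (Fin n) → ℕ)) (g : G) :
    orderOf g ≠ p * q := by
  intro h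
  obtain ⟨σ, hσ⟩ : p * q ∈ Set.range (orderOf : alternatingGroup (Fin n) → ℕ) := hspec ▸ ⟨g, h⟩
  rw [← Subgroup.orderOf_coe] at hσ
  have := add_le_of_orderOf hp hq hpq (σ : Equiv.Perm (Fin n)) hσ
  rw [Fintype.card_fin] at this
  omega

/-- A prime in `(n/2, n]` divides `n!` exactly once. -/
theorem factorization_factorial_eq {p : ℕ} (hp : p.Prime) :
    ∀ n : ℕ, n < 2 * p → n.factorial.factorization p = if p ≤ n then 1 else 0 := by
  intro n
  induction n with
  | zero => intro _; rw [if_neg (by have := hp.pos; omega), Nat.factorial_zero, Nat.factorization_one]; rfl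
  | succ n ih =>
    intro h
    rw [Nat.factorial_succ, Nat.factorization_mul (Nat.succ_ne_zero n) (Nat.factorial_ne_zero n), Finsupp.add_apply,
      ih (by omega)]
    by_cases h1 : p = n + 1
    · rw [show n.succ = p by omega, hp.factorization_self, if_neg (by omega), if_pos (by omega)]
    · have h2 : ¬ p ∣ n + 1 := by
        rintro ⟨k, hk⟩
        rcases k with _ | _ | k
        · omega
        · omega
        · rw [hk] at h
          have := Nat.mul_le_mul_left p (show 2 ≤ k + 1 + 1 by omega)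
          omega
      rw [Nat.factorization_eq_zero_of_not_dvd h2, zero_add]
      by_cases h3 : p ≤ n
      · rw [if_pos h3, if_pos (by omega)]
      · rw [if_neg h3, if_neg (by omega)]

/-- Such a prime divides `|A_n|` exactly once. -/
theorem card_alternating_exact {n p : ℕ} (hp : p.Prime) (hp2 : p ≠ 2) (hn : p ≤ n) (h : n < 2 * p) :
    p ∣ Nat.card (alternatingGroup (Fin n)) ∧ ¬ p ^ 2 ∣ Nat.card (alternatingGroup (Fin n)) := by
  haveI : Nontrivial (Fin n) := Fin.nontrivial_iff_two_le.mpr (by have := hp.two_le; omega)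
  have h1 := two_mul_nat_card_alternatingGroup (α := Fin n)
  rw [Nat.card_perm, Nat.card_fin] at h1
  have h2 : (2 * Nat.card (alternatingGroup (Fin n))).factorization p = 1 := by
    rw [h1, factorization_factorial_eq hp n h, if_pos hn]
  rw [Nat.factorization_mul two_ne_zero Nat.card_pos.ne', Finsupp.add_apply,
    Nat.factorization_eq_zero_of_not_dvd (fun hd => hp2 ((Nat.prime_dvd_prime_iff_eq hp Nat.prime_two).mp hd)),
    zero_add] at h2
  refine ⟨Nat.dvd_of_factorization_pos (by rw [h2]; exact one_ne_zero), fun hd => ?_⟩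
  have := (hp.pow_dvd_iff_le_factorization Nat.card_pos.ne').mp hd
  omega

theorem mul_pow_not_dvd_sub_one {p q : ℕ} (hp : p.Prime) (hq : q.Prime) (hq2 : q ≠ 2) (h : q < p) (h2 : p < 2 * q) :
    ¬ q ∣ p - 1 := by
  rintro ⟨k, hk⟩
  rcases k with _ | _ | k
  · rw [mul_zero] at hk; have := hp.two_le; omega
  · rw [zero_add, mul_one] at hk
    rcases hp.eq_two_or_odd with hp' | hp'
    · have := hq.two_le; omega
    · rcases hq.eq_two_or_odd with hq' | hq'
      · omega
      · omega
  · have := Nat.mul_le_mul_left q (show 2 ≤ k + 1 + 1 by omega)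
    omega

/-- An element normalising a cyclic group of prime order `p` and of order prime to `p - 1` centralises it. -/
theorem commute_of_normalizes {G : Type*} [Group G] [Finite G] {p q : ℕ} (hp : p.Prime) (hq : q.Prime)
    (hqp : ¬ q ∣ p - 1) (P : Subgroup G) (hP : Nat.card P = p) {y : G} (hy : orderOf y = q)
    (hn : y ∈ Subgroup.normalizer (P : Set G)) {x : G} (hx : x ∈ P) : Commute x y := by
  rcases eq_or_ne x 1 with rfl | hx1
  · exact Commute.one_left y
  haveI := Fact.mk hp
  have hgen : ∀ z ∈ P, ∃ i : ℕ, x ^ i = z := by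
    intro z hz
    have h1 : Subgroup.zpowers (⟨x, hx⟩ : P) = ⊤ :=
      zpowers_eq_top_of_prime_card hP fun e => hx1 (congrArg Subtype.val e)
    obtain ⟨i, hi⟩ := (isOfFinOrder_of_finite _).mem_powers_iff_mem_zpowers.mpr
      (h1 ▸ Subgroup.mem_top (⟨z, hz⟩ : P))
    exact ⟨i, by simpa using congrArg Subtype.val hi⟩
  have hox : orderOf x = p := by
    have h1 := orderOf_dvd_natCard (⟨x, hx⟩ : P)
    rw [hP, Subgroup.orderOf_mk] at h1
    exact ((Nat.dvd_prime hp).mp h1).resolve_left fun e => hx1 (orderOf_eq_one_iff.mp e)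
  obtain ⟨r, hr⟩ := hgen _ ((Subgroup.mem_normalizer_iff.mp hn x).mp hx)
  have hiter : ∀ j : ℕ, y ^ j * x * (y ^ j)⁻¹ = x ^ r ^ j := by
    intro j
    induction j with
    | zero => simp
    | succ j ih =>
      rw [pow_succ', mul_inv_rev, show y * y ^ j * x * ((y ^ j)⁻¹ * y⁻¹) = y * (y ^ j * x * (y ^ j)⁻¹) * y⁻¹ by group,
        ih, ← conj_pow, ← hr, ← pow_mul, pow_succ']
  have h1 := hiter q
  rw [← hy, pow_orderOf_eq_one, one_mul, inv_one, mul_one, hy] at h1
  have h1' : x ^ r ^ q = x ^ 1 := by rw [pow_one]; exact h1.symm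
  rw [pow_inj_mod, hox, ← Nat.ModEq, ← ZMod.natCast_eq_natCast_iff] at h1'
  push_cast at h1'
  have hr0 : (r : ZMod p) ≠ 0 := fun e => by
    rw [e, zero_pow hq.ne_zero] at h1'
    exact zero_ne_one h1'
  have hr1 : (r : ZMod p) = 1 := by
    have h2 := ZMod.pow_card_sub_one_eq_one hr0
    have hc : Nat.gcd q (p - 1) = 1 := (hq.coprime_iff_not_dvd.mpr hqp)
    rw [← pow_one (r : ZMod p), ← hc]
    exact pow_gcd_eq_one.mpr ⟨h1', h2⟩
  rw [show (1 : ZMod p) = ((1 : ℕ) : ZMod p) from Nat.cast_one.symm, ZMod.natCast_eq_natCast_iff', ← hox,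
    ← pow_inj_mod, pow_one] at hr1
  rw [hr1] at hr
  show x * y = y * x
  conv_lhs => rw [hr]
  group

end CfsgLib.AltSpectrum
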