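import Mathlib

/-! Two primes in the upper half of an interval. -/

set_option autoImplicit false

namespace CfsgLib.TwoPrimes

open Nat

theorem exp_bound (j : ℕ) (hj : 7 ≤ j) : 6 * j + 12 ≤ 2 ^ (j - 1) := by
  obtain ⟨i, rfl⟩ : ∃ i, j = i + 7 := ⟨j - 7, by omega⟩
  induction i with
  | zero => norm_num
  | succ i ih =>
    have := ih (by omega)
    rw [show i + 1 + 7 - 1 = (i + 7 - 1) + 1 by omega, pow_succ]
    omega

/-- The inequality needed for two primes. -/
theorem main_inequality {n : ℕ} (hn : 2048 ≤ n) :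
    n * (2 * n) ^ (sqrt (2 * n) + 1) * 4 ^ (2 * n / 3) ≤ 4 ^ n := by
  obtain ⟨s, hs⟩ : ∃ s, s = sqrt (2 * n) := ⟨_, rfl⟩
  rw [← hs]
  have hs64 : 64 ≤ s := by rw [hs, Nat.le_sqrt]; omega
  obtain ⟨j, hj⟩ : ∃ j, j = Nat.log 2 s + 1 := ⟨_, rfl⟩
  have h1 : 2 ^ (j - 1) ≤ s := by rw [hj, Nat.add_sub_cancel]; exact Nat.pow_log_le_self 2 (by omega)
  have h2 : s + 1 ≤ 2 ^ j := by rw [hj]; exact Nat.lt_pow_succ_log_self (by norm_num) s
  have hj7 : 7 ≤ j := by
    by_contra hlt
    have : 2 ^ j ≤ 2 ^ 6 := Nat.pow_le_pow_right (by norm_num) (by omega)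
    omega
  have h3 := exp_bound j hj7
  have hs2 : s * s ≤ 2 * n := by rw [hs]; exact Nat.sqrt_le _
  have h2n : 2 * n ≤ 2 ^ (2 * j) := by
    have : 2 * n < (s + 1) * (s + 1) := by rw [hs]; exact Nat.lt_succ_sqrt _
    have := Nat.mul_le_mul h2 h2
    rw [← pow_add] at this
    rw [two_mul j]
    omega
  have hexp : 2 * j * (s + 2) ≤ 2 * (n - 2 * n / 3) := by
    have h6 : 3 * (j * (s + 2)) * 2 ≤ s * s := by
      have hjs : j ≤ s := by omega
      calc 3 * (j * (s + 2)) * 2 = 6 * j * s + 12 * j := by ring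
        _ ≤ 6 * j * s + 12 * s := by omega
        _ = (6 * j + 12) * s := by ring
        _ ≤ s * s := Nat.mul_le_mul_right s (by omega)
    rw [mul_assoc]
    omega
  calc n * (2 * n) ^ (s + 1) * 4 ^ (2 * n / 3)
      ≤ (2 * n) * (2 * n) ^ (s + 1) * 4 ^ (2 * n / 3) := by gcongr; omega
    _ = (2 * n) ^ (s + 2) * 4 ^ (2 * n / 3) := by rw [← pow_succ']
    _ ≤ (2 ^ (2 * j)) ^ (s + 2) * 4 ^ (2 * n / 3) := by gcongr
    _ ≤ 4 ^ (n - 2 * n / 3) * 4 ^ (2 * n / 3) := by
        refine Nat.mul_le_mul_right _ ?_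
        rw [← pow_mul, show (4 : ℕ) = 2 ^ 2 by norm_num, ← pow_mul]
        exact Nat.pow_le_pow_right (by norm_num) hexp
    _ = 4 ^ n := by rw [← pow_add, Nat.sub_add_cancel (by omega)]

/-- With at most one prime in `(n, 2n]` the central binomial coefficient is small. -/
theorem centralBinom_le (n : ℕ) (hn : 2 < n) (p₀ : ℕ)
    (h : ∀ p : ℕ, p.Prime → n < p → p ≤ 2 * n → p = p₀) :
    centralBinom n ≤ (2 * n) ^ (sqrt (2 * n) + 1) * 4 ^ (2 * n / 3) := by
  classical
  let f : ℕ → ℕ := fun x => x ^ n.centralBinom.factorization x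
  let A := (Finset.range (2 * n + 1)).filter fun x => x.Prime ∧ x ≤ sqrt (2 * n)
  let B := (Finset.range (2 * n / 3 + 1)).filter fun x => x.Prime ∧ sqrt (2 * n) < x
  let C : Finset ℕ := ({p₀} : Finset ℕ).filter fun x => x.Prime ∧ n < x ∧ x ≤ 2 * n ∧ sqrt (2 * n) < x
  have hpos : 1 ≤ 2 * n := by omega
  have hf : ∀ p, f p ≤ 2 * n := fun p => Nat.pow_factorization_choose_le (by omega)
  have hsub : A ∪ B ∪ C ⊆ Finset.range (2 * n + 1) := by
    intro x hx
    simp only [A, B, C, Finset.mem_union, Finset.mem_filter, Finset.mem_range, Finset.mem_singleton] at hx ⊢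
    omega
  have hprod : n.centralBinom = ∏ x ∈ A ∪ B ∪ C, f x := by
    refine (Eq.trans ?_ n.prod_pow_factorization_centralBinom).symm
    refine Finset.prod_subset hsub fun x hx hnx => ?_
    show x ^ n.centralBinom.factorization x = 1
    by_cases hxp : x.Prime
    · simp only [A, B, C, Finset.mem_union, Finset.mem_filter, Finset.mem_range, Finset.mem_singleton] at hx hnx
      by_cases hxn : x ≤ n
      · rw [Nat.factorization_centralBinom_of_two_mul_self_lt_three_mul hn hxn ?_, pow_zero]
        by_contra hle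
        rcases Nat.lt_or_ge (sqrt (2 * n)) x with h1 | h1
        · exact hnx (Or.inl (Or.inr ⟨by omega, hxp, h1⟩))
        · exact hnx (Or.inl (Or.inl ⟨hx, hxp, h1⟩))
      · exfalso
        refine hnx (Or.inr ⟨h x hxp (by omega) (by omega), hxp, by omega, by omega, ?_⟩)
        have : sqrt (2 * n) < n + 1 := Nat.sqrt_lt'.mpr (by
          have : 2 * n < (n + 1) * (n + 1) := by
            calc 2 * n < 2 * n + 1 := by omega
              _ ≤ n * n + 2 * n + 1 := by omega
              _ = (n + 1) * (n + 1) := by ring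
          rwa [pow_two])
        omega
    · rw [Nat.factorization_eq_zero_of_not_prime _ hxp, pow_zero]
  rw [hprod]
  calc ∏ x ∈ A ∪ B ∪ C, f x ≤ (∏ x ∈ A ∪ B, f x) * ∏ x ∈ C, f x := by
        rw [← Finset.prod_union_inter]
        exact Nat.le_mul_of_pos_right _ (Finset.prod_pos fun x hx => by
          simp only [C, Finset.mem_inter, Finset.mem_filter] at hx
          exact pow_pos hx.2.2.1.pos _)
    _ ≤ ((∏ x ∈ A, f x) * ∏ x ∈ B, f x) * ∏ x ∈ C, f x := by
        gcongr
        rw [← Finset.prod_union_inter]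
        exact Nat.le_mul_of_pos_right _ (Finset.prod_pos fun x hx => by
          simp only [B, Finset.mem_inter, Finset.mem_filter] at hx
          exact pow_pos hx.2.2.1.pos _)
    _ ≤ ((2 * n) ^ sqrt (2 * n) * 4 ^ (2 * n / 3)) * (2 * n) := by
        refine Nat.mul_le_mul (Nat.mul_le_mul ?_ ?_) ?_
        · refine (Finset.prod_le_pow_card _ _ _ fun p _ => hf p).trans ?_
          refine Nat.pow_le_pow_right hpos ?_
          have : A ⊆ Finset.Icc 1 (sqrt (2 * n)) := fun x hx => by
            simp only [A, Finset.mem_filter] at hx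
            exact Finset.mem_Icc.mpr ⟨hx.2.1.one_lt.le, hx.2.2⟩
          exact (Finset.card_le_card this).trans (by rw [Nat.card_Icc, Nat.add_sub_cancel])
        · refine le_trans ?_ (primorial_le_four_pow (2 * n / 3))
          refine (Finset.prod_le_prod' (g := fun p => p) fun p hp => ?_).trans ?_
          · simp only [B, Finset.mem_filter] at hp
            exact (Nat.pow_le_pow_right hp.2.1.pos (Nat.factorization_choose_le_one (Nat.sqrt_lt'.mp hp.2.2))).trans (pow_one p).le
          · refine Finset.prod_le_prod_of_subset_of_one_le' ?_ fun p hp _ => ?_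
            · intro x hx
              simp only [B, Finset.mem_filter] at hx ⊢
              exact ⟨hx.1, hx.2.1⟩
            · simp only [Finset.mem_filter] at hp
              exact hp.2.one_lt.le
        · refine (Finset.prod_le_pow_card _ _ _ fun p _ => hf p).trans ?_
          calc (2 * n) ^ C.card ≤ (2 * n) ^ 1 := Nat.pow_le_pow_right hpos
                ((Finset.card_filter_le _ _).trans (by rw [Finset.card_singleton]))
            _ = 2 * n := pow_one _
    _ = (2 * n) ^ (sqrt (2 * n) + 1) * 4 ^ (2 * n / 3) := by rw [pow_succ]; ring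

theorem two_primes_large (m : ℕ) (hm : 2048 ≤ m) :
    ∃ p q : ℕ, p.Prime ∧ q.Prime ∧ m < q ∧ q < p ∧ p ≤ 2 * m := by
  obtain ⟨p₀, hp₀, h1, h2⟩ := Nat.exists_prime_lt_and_le_two_mul m (by omega)
  by_contra hcon
  push Not at hcon
  have h : ∀ p : ℕ, p.Prime → m < p → p ≤ 2 * m → p = p₀ := by
    intro p hp hp1 hp2
    rcases Nat.lt_trichotomy p p₀ with h | h | h
    · exact absurd h2 (not_le.mpr (hcon p₀ p hp₀ hp hp1 h))
    · exact h
    · exact absurd hp2 (not_le.mpr (hcon p p₀ hp hp₀ h1 h))
  have h3 := centralBinom_le m (by omega) p₀ h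
  have h4 := Nat.four_pow_lt_mul_centralBinom m (by omega)
  have h5 := main_inequality hm
  have h6 := Nat.mul_le_mul_left m h3
  rw [← mul_assoc] at h6
  omega

/-- For `n ≥ 11` there are two primes in `(n/2, n]`. -/
theorem two_primes (n : ℕ) (hn : 11 ≤ n) :
    ∃ p q : ℕ, p.Prime ∧ q.Prime ∧ q < p ∧ p ≤ n ∧ n < 2 * q := by
  rcases Nat.lt_or_ge n 4096 with h | h
  · have step : ∀ p q : ℕ, p.Prime → q.Prime → q < p → p ≤ n → n < 2 * q →
        ∃ p q : ℕ, p.Prime ∧ q.Prime ∧ q < p ∧ p ≤ n ∧ n < 2 * q :=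
      fun p q a b c d e => ⟨p, q, a, b, c, d, e⟩
    by_cases h1 : n < 14
    · exact step 11 7 (by norm_num) (by norm_num) (by norm_num) (by omega) (by omega)
    by_cases h2 : n < 22
    · exact step 13 11 (by norm_num) (by norm_num) (by norm_num) (by omega) (by omega)
    by_cases h3 : n < 34
    · exact step 19 17 (by norm_num) (by norm_num) (by norm_num) (by omega) (by omega)
    by_cases h4 : n < 58
    · exact step 31 29 (by norm_num) (by norm_num) (by norm_num) (by omega) (by omega)
    by_cases h5 : n < 94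
    · exact step 53 47 (by norm_num) (by norm_num) (by norm_num) (by omega) (by omega)
    by_cases h6 : n < 166
    · exact step 89 83 (by norm_num) (by norm_num) (by norm_num) (by omega) (by omega)
    by_cases h7 : n < 314
    · exact step 163 157 (by norm_num) (by norm_num) (by norm_num) (by omega) (by omega)
    by_cases h8 : n < 614
    · exact step 311 307 (by norm_num) (by norm_num) (by norm_num) (by omega) (by omega)
    by_cases h9 : n < 1214
    · exact step 613 607 (by norm_num) (by norm_num) (by norm_num) (by omega) (by omega)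
    by_cases h10 : n < 2402
    · exact step 1213 1201 (by norm_num) (by norm_num) (by norm_num) (by omega) (by omega)
    · exact step 2399 2393 (by norm_num) (by norm_num) (by norm_num) (by omega) (by omega)
  · obtain ⟨p, q, hp, hq, h1, h2, h3⟩ := two_primes_large (n / 2) (by omega)
    exact ⟨p, q, hp, hq, h2, by omega, by omega⟩

end CfsgLib.TwoPrimes
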